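import Cfsg.Agent.OddLocal.Coprime
import Cfsg.Agent.OddLocal.FixOrderP
import Cfsg.Agent.Core.Cores
import Cfsg.Prelude.Def_Local
import Mathlib.GroupTheory.SchurZassenhaus

/-! Groups of `p`-length one. -/

set_option autoImplicit false

namespace Cfsg.Agent.OddLocal

open Cfsg
open scoped Pointwise

variable {G : Type*} [Group G]

theorem mem_sup_normal {N U : Subgroup G} [N.Normal] {x : G} (hx : x ∈ U ⊔ N) :
    ∃ u ∈ U, ∃ n ∈ N, x = u * n := by
  rw [← SetLike.mem_coe, Subgroup.coe_mul_of_left_le_normalizer_right U N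
    (by rw [Subgroup.normalizer_eq_top]; exact le_top)] at hx
  obtain ⟨a, ha, b, hb, rfl⟩ := hx
  exact ⟨a, ha, b, hb, rfl⟩

theorem upperPSeries_zero (p : ℕ) : (upperPSeries p G 0).1 = ⊥ := rfl

/-- The data of a group of `p`-length one. -/
theorem pLengthOne_facts [Finite G] {p : ℕ} [hp : Fact p.Prime] (h : PLengthLE p 1 G) (S : Sylow p G) :
    ∃ N : Subgroup G, N.Normal ∧ (Nat.card N).Coprime p ∧ ((S : Subgroup G) ⊔ N).Normal ∧
      (∀ Q : Subgroup G, IsPGroup p Q → Q ≤ (S : Subgroup G) ⊔ N) ∧ pPrimeCore p G ≤ N := by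
  let U₁ : Subgroup G := (upperPSeries p G 1).1
  let U₂ : Subgroup G := (upperPSeries p G 2).1
  haveI hn1 : U₁.Normal := (upperPSeries p G 1).2
  haveI hn2 : U₂.Normal := (upperPSeries p G 2).2
  have e1 : U₁ = (pPrimeCore p (G ⧸ (upperPSeries p G 0).1)).comap (QuotientGroup.mk' _) := rfl
  have e2 : U₂ = (pCore p (G ⧸ U₁)).comap (QuotientGroup.mk' U₁) := rfl
  have e3 : (upperPSeries p G 3).1 = (pPrimeCore p (G ⧸ U₂)).comap (QuotientGroup.mk' U₂) := rfl
  have hc1 : (Nat.card U₁).Coprime p := by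
    rw [e1, Cfsg.Agent.Core.card_comap_mk, show Nat.card ↥(upperPSeries p G 0).1 = 1 from Subgroup.card_bot, mul_one]
    exact Cfsg.Agent.Core.card_pPrimeCore_coprime _ _
  obtain ⟨k, hk⟩ : ∃ k, Nat.card U₂ = p ^ k * Nat.card U₁ := by
    obtain ⟨k, hk⟩ := IsPGroup.iff_card.mp (Cfsg.Agent.Core.isPGroup_pCore p (G ⧸ U₁))
    exact ⟨k, by rw [e2, Cfsg.Agent.Core.card_comap_mk, hk]⟩
  have hidx : U₂.index.Coprime p := by
    have h' : (upperPSeries p G 3).1 = ⊤ := h
    rw [e3] at h'
    have : pPrimeCore p (G ⧸ U₂) = ⊤ := by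
      rw [← Subgroup.map_comap_eq_self_of_surjective (QuotientGroup.mk'_surjective U₂) (pPrimeCore p (G ⧸ U₂)),
        h', Subgroup.map_top_of_surjective _ (QuotientGroup.mk'_surjective U₂)]
    have hc := Cfsg.Agent.Core.card_pPrimeCore_coprime p (G ⧸ U₂)
    rwa [this, Subgroup.card_top, ← Subgroup.index_eq_card] at hc
  have hQU : ∀ Q : Subgroup G, IsPGroup p Q → Q ≤ U₂ := by
    intro Q hQ
    refine Cfsg.Agent.Core.le_of_coprime_index ?_
    obtain ⟨j, hj⟩ := IsPGroup.iff_card.mp hQ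
    rw [hj]; exact hidx.symm.pow_left j
  have h12 : U₁ ≤ U₂ := by
    intro x hx
    rw [e2, Subgroup.mem_comap, show QuotientGroup.mk' U₁ x = 1 from (QuotientGroup.eq_one_iff x).mpr hx]
    exact Subgroup.one_mem _
  have hle : (S : Subgroup G) ⊔ U₁ ≤ U₂ := sup_le (hQU _ S.isPGroup') h12
  have heq : (S : Subgroup G) ⊔ U₁ = U₂ := by
    refine Subgroup.eq_of_le_of_card_ge hle ?_
    obtain ⟨j, hj⟩ := IsPGroup.iff_card.mp S.isPGroup'
    have hdisj : (S : Subgroup G) ⊓ U₁ = ⊥ := by
      rw [← Subgroup.card_eq_one]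
      have a1 := Subgroup.card_dvd_of_le (inf_le_left : (S : Subgroup G) ⊓ U₁ ≤ S)
      rw [hj] at a1
      exact Nat.eq_one_of_dvd_coprimes (hc1.symm.pow_left j) a1 (Subgroup.card_dvd_of_le inf_le_right)
    rw [Cfsg.Agent.Core.card_sup_of_disjoint hdisj, hk, hj]
    refine Nat.mul_le_mul_right _ (Nat.pow_le_pow_right hp.out.pos ?_)
    have hdvd : p ^ k ∣ Nat.card G :=
      dvd_trans (hk ▸ Dvd.intro _ rfl) (Subgroup.card_subgroup_dvd_card U₂)
    have h2 : j = (Nat.card G).factorization p := by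
      have := S.card_eq_multiplicity; rw [hj] at this; exact Nat.pow_right_injective hp.out.two_le this
    rw [h2]; exact (hp.out.pow_dvd_iff_le_factorization Nat.card_pos.ne').mp hdvd
  refine ⟨U₁, hn1, hc1, by rw [heq]; exact hn2, fun Q hQ => by rw [heq]; exact hQU Q hQ, ?_⟩
  rw [e1, ← Subgroup.map_le_iff_le_comap]
  exact Cfsg.Agent.Core.map_pPrimeCore_le (QuotientGroup.mk'_surjective _)

theorem frattini_sup_normalizer [Finite G] {p : ℕ} [Fact p.Prime] (S : Sylow p G) (N : Subgroup G)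
    [hN : N.Normal] (hn : ((S : Subgroup G) ⊔ N).Normal) :
    N ⊔ Subgroup.normalizer ((S : Subgroup G) : Set G) = ⊤ := by
  haveI := hn
  have h := Sylow.normalizer_sup_eq_top (S.subtype (le_sup_left : (S : Subgroup G) ≤ (S : Subgroup G) ⊔ N))
  rw [Sylow.coe_subtype, Subgroup.subgroupOf_map_subtype, inf_of_le_left le_sup_left] at h
  rw [eq_top_iff, ← h]
  exact sup_le le_sup_right (sup_le (Subgroup.le_normalizer.trans le_sup_right) le_sup_left)

theorem pLengthOne_fusion [Finite G] [Group.IsSolvable G] {p : ℕ} [hp : Fact p.Prime]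
    (hpl : PLengthLE p 1 G) (S : Sylow p G) :
    ((S : Subgroup G) ≤ commutator G →
      (S : Subgroup G) ≤ ⁅Subgroup.normalizer ((S : Subgroup G) : Set G), Subgroup.normalizer ((S : Subgroup G) : Set G)⁆) ∧
      (∀ (Y : Set G) (x : G), Y ⊆ (S : Subgroup G) → (fun y => x * y * x⁻¹) '' Y ⊆ (S : Subgroup G) →
        ∃ g ∈ Subgroup.normalizer ((S : Subgroup G) : Set G), ∃ c ∈ Subgroup.centralizer Y, g * c = x) ∧
      ∀ Q : Subgroup G, IsPGroup p Q →
        ∃ x ∈ Subgroup.centralizer ((Q ⊓ (S : Subgroup G) : Subgroup G) : Set G),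
          Q.map (MulAut.conj x).toMonoidHom ≤ (S : Subgroup G) := by
  obtain ⟨N, hN, hNp, hSN, hQ, -⟩ := pLengthOne_facts hpl S
  haveI := hN
  set U := Subgroup.normalizer ((S : Subgroup G) : Set G) with hU
  have htop : N ⊔ U = ⊤ := frattini_sup_normalizer S N hSN
  have hSU : (S : Subgroup G) ≤ U := Subgroup.le_normalizer
  have hcop : ∀ H : Subgroup G, H ≤ S → (Nat.card H).Coprime (Nat.card N) := by
    intro H hH
    obtain ⟨j, hj⟩ := IsPGroup.iff_card.mp (S.isPGroup'.to_le hH)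
    rw [hj]; exact hNp.symm.pow_left j
  refine ⟨fun hS => ?_, fun Y x hY hxY => ?_, fun Q hQp => ?_⟩
  · have h := (supplement_fusion N U _ htop hSU (hcop _ le_rfl)).1
    rw [inf_of_le_left hS] at h
    exact inf_eq_left.mp h.symm
  · have hH : Subgroup.closure Y ≤ S := (Subgroup.closure_le _).mpr hY
    have hmap : (Subgroup.closure Y).map (MulAut.conj x).toMonoidHom ≤ U := by
      rw [MonoidHom.map_closure, Subgroup.closure_le]
      exact fun z hz => hSU (hxY hz)
    obtain ⟨u, hu, c, hc, hxe⟩ :=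
      (supplement_fusion N U _ htop (hH.trans hSU) (hcop _ hH)).2.2 x hmap
    exact ⟨u, hu, c, Subgroup.centralizer_le Subgroup.subset_closure hc.2, hxe.symm⟩
  · set W := (S : Subgroup G) ⊔ N
    obtain ⟨R, hR⟩ := (hQp.comap_subtype (K := W)).exists_le_sylow
    obtain ⟨w, hw⟩ := MulAction.exists_smul_eq W R (S.subtype (le_sup_left : (S : Subgroup G) ≤ W))
    obtain ⟨s, hs, n, hn, hwe⟩ := mem_sup_normal w.2
    have hnQ : Q.map (MulAut.conj n).toMonoidHom ≤ S := by
      rintro _ ⟨y, hy, rfl⟩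
      have hyR : (⟨y, hQ Q hQp hy⟩ : W) ∈ (R : Subgroup W) := hR (Subgroup.mem_comap.mpr hy)
      have h2 : w * ⟨y, hQ Q hQp hy⟩ * w⁻¹ ∈ ((S.subtype (le_sup_left : (S : Subgroup G) ≤ W)) : Subgroup W) := by
        rw [← hw]
        exact Subgroup.smul_mem_pointwise_smul _ (MulAut.conj w) _ hyR
      rw [Sylow.coe_subtype, Subgroup.mem_subgroupOf] at h2
      simp only [Subgroup.coe_mul, Subgroup.coe_inv, hwe] at h2
      have := (S : Subgroup G).mul_mem ((S : Subgroup G).mul_mem ((S : Subgroup G).inv_mem hs) h2) hs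
      simp only [MulEquiv.coe_toMonoidHom, MulAut.conj_apply]
      simpa [mul_assoc] using this
    have hH : Q ⊓ (S : Subgroup G) ≤ S := inf_le_right
    obtain ⟨u, hu, c, hc, hne⟩ := (supplement_fusion N U _ htop (hH.trans hSU) (hcop _ hH)).2.2 n
      (le_trans (Subgroup.map_mono inf_le_left) (hnQ.trans hSU))
    refine ⟨c, hc.2, ?_⟩
    rintro _ ⟨y, hy, rfl⟩
    have h1 : n * y * n⁻¹ ∈ (S : Subgroup G) := hnQ ⟨y, hy, rfl⟩
    have h2 := (Subgroup.mem_normalizer_iff''.mp hu (n * y * n⁻¹)).mp h1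
    simp only [MulEquiv.coe_toMonoidHom, MulAut.conj_apply]
    rw [hne] at h2
    simpa [mul_assoc] using h2

/-- In a group of `p`-length one a `p'`-subgroup normalized by a maximal elementary abelian
`p`-subgroup lies in the `p'`-core. -/
theorem pLengthOne_maximal_elementary [Finite G] {p : ℕ} [hp : Fact p.Prime] (hp2 : p ≠ 2)
    (hpl : PLengthLE p 1 G) (E L : Subgroup G) (hE : IsElementaryAbelian p E)
    (hEmax : ∀ B : Subgroup G, IsElementaryAbelian p B → E ≤ B → B = E)
    (hL : (Nat.card L).Coprime p) (hEL : E ≤ Subgroup.normalizer (L : Set G)) :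
    L ≤ pPrimeCore p G := by
  have hEp : IsPGroup p E := fun e => ⟨1, Subtype.ext (by simpa using hE.2 e e.2)⟩
  obtain ⟨S, hS⟩ := hEp.exists_le_sylow
  obtain ⟨N, hN, hNp, hSN, -, hU1max⟩ := pLengthOne_facts hpl S
  haveI := hN
  haveI := hSN
  refine le_trans ?_ (Cfsg.Agent.Core.le_pPrimeCore hN hNp)
  let f := QuotientGroup.mk' N
  have hScard : ∀ x ∈ (S : Subgroup G), x ∈ N → x = 1 := fun x hx hxN => by
    obtain ⟨k, hk⟩ := S.isPGroup' ⟨x, hx⟩
    have hk' : x ^ p ^ k = 1 := congrArg Subtype.val hk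
    exact orderOf_eq_one_iff.mp (Nat.eq_one_of_dvd_coprimes (hNp.symm.pow_left k)
      (orderOf_dvd_of_pow_eq_one hk') (Subgroup.orderOf_dvd_natCard N hxN))
  set Sb := (S : Subgroup G).map f with hSb
  have hSbn : Sb.Normal := by
    have : Sb = ((S : Subgroup G) ⊔ N).map f := by
      rw [Subgroup.map_sup, (Subgroup.map_eq_bot_iff N).mpr (by simp [f]), sup_bot_eq]
    rw [this]; exact hSN.map f (QuotientGroup.mk'_surjective N)
  have hSbp : IsPGroup p Sb := S.isPGroup'.map f
  have hLcop : (Nat.card (L.map f)).Coprime p := hL.coprime_dvd_left (Subgroup.card_map_dvd L f)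
  have hLSb : ∀ x, x ∈ L.map f → x ∈ Sb → x = 1 := fun x hx hx' => by
    obtain ⟨k, hk⟩ := hSbp ⟨x, hx'⟩
    have hk' : x ^ p ^ k = 1 := congrArg Subtype.val hk
    exact orderOf_eq_one_iff.mp (Nat.eq_one_of_dvd_coprimes (hLcop.symm.pow_left k)
      (orderOf_dvd_of_pow_eq_one hk') (Subgroup.orderOf_dvd_natCard _ hx))
  have hfix : L.map f ≤ Subgroup.centralizer (Sb : Set (G ⧸ N)) := by
    refine le_centralizer_of_fixed_order_p_centralizer hp2 Sb (E.map f) (L.map f) hSbp
      (Subgroup.map_mono hS) ?_ ?_ ?_ hLcop ?_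
    · rw [← Subgroup.le_centralizer_iff_isMulCommutative]
      rintro _ ⟨a, ha, rfl⟩
      refine Subgroup.mem_centralizer_iff.mpr ?_
      rintro _ ⟨b, hb, rfl⟩
      rw [← map_mul, ← map_mul,
        Subgroup.mem_centralizer_iff.mp (Subgroup.le_centralizer_iff_isMulCommutative.mpr hE.1 ha) b hb]
    · rintro _ ⟨a, ha, rfl⟩
      rw [← map_pow, hE.2 a ha, map_one]
    · rw [Subgroup.normalizer_eq_top_iff.mpr hSbn]; exact le_top
    rintro x ⟨⟨s, hs, rfl⟩, hsc⟩ hxo
    have hspow : s ^ p = 1 := hScard _ ((S : Subgroup G).pow_mem hs p)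
      ((QuotientGroup.eq_one_iff _).mp (by
        show f (s ^ p) = 1
        rw [map_pow, ← hxo, pow_orderOf_eq_one]))
    have hscomm : ∀ e ∈ E, e * s = s * e := by
      intro e he
      have h1 := Subgroup.mem_centralizer_iff.mp hsc (f e) (Subgroup.mem_map_of_mem f he)
      have h2 : e * s * (s * e)⁻¹ = 1 := by
        refine hScard _ ((S : Subgroup G).mul_mem ((S : Subgroup G).mul_mem (hS he) hs)
          ((S : Subgroup G).inv_mem ((S : Subgroup G).mul_mem hs (hS he)))) ?_
        rw [← QuotientGroup.eq_one_iff]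
        show f (e * s * (s * e)⁻¹) = 1
        rw [map_mul, map_inv, map_mul, map_mul, h1, mul_inv_cancel]
      exact mul_inv_eq_one.mp h2
    have hsE : s ∈ E := by
      have hBe : IsElementaryAbelian p (E ⊔ Subgroup.zpowers s) := by
        have hc : IsMulCommutative ↥(E ⊔ Subgroup.zpowers s) := by
          rw [← Subgroup.le_centralizer_iff_isMulCommutative]
          have hEC : E ≤ Subgroup.centralizer ((E ⊔ Subgroup.zpowers s : Subgroup G) : Set G) := by
            rw [Subgroup.le_centralizer_iff]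
            refine sup_le (Subgroup.le_centralizer_iff_isMulCommutative.mpr hE.1) ?_
            rw [Subgroup.zpowers_le]
            exact Subgroup.mem_centralizer_iff.mpr hscomm
          refine sup_le hEC ?_
          rw [Subgroup.le_centralizer_iff]
          refine sup_le ?_ ?_
          · intro e he
            refine Subgroup.mem_centralizer_iff.mpr fun z hz => ?_
            exact (Subgroup.mem_centralizer_iff.mp (hEC he) z (Subgroup.mem_sup_right hz))
          · exact Subgroup.le_centralizer_iff_isMulCommutative.mpr inferInstance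
        refine ⟨hc, fun a ha => ?_⟩
        obtain ⟨e, he, z, hz, rfl⟩ : ∃ e ∈ E, ∃ z ∈ Subgroup.zpowers s, a = e * z := by
          have hn : E ≤ Subgroup.normalizer ((Subgroup.zpowers s : Subgroup G) : Set G) := by
            refine le_trans (fun e he => ?_) (Subgroup.centralizer_le_normalizer _)
            refine Subgroup.mem_centralizer_iff.mpr fun z hz => ?_
            obtain ⟨i, rfl⟩ := Subgroup.mem_zpowers_iff.mp hz
            exact ((Commute.zpow_right (hscomm e he) i)).eq.symm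
          rw [← SetLike.mem_coe, Subgroup.coe_mul_of_left_le_normalizer_right _ _ hn] at ha
          obtain ⟨e, he, z, hz, rfl⟩ := ha
          exact ⟨e, he, z, hz, rfl⟩
        obtain ⟨i, rfl⟩ := Subgroup.mem_zpowers_iff.mp hz
        have hc' : Commute e (s ^ i) := Commute.zpow_right (hscomm e he) i
        rw [hc'.mul_pow, hE.2 e he, ← zpow_natCast, ← zpow_mul, mul_comm, zpow_mul, zpow_natCast, hspow,
          one_zpow, one_mul]
      rw [← hEmax _ hBe le_sup_left]
      exact Subgroup.mem_sup_right (Subgroup.mem_zpowers s)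
    rintro _ ⟨l, hl, rfl⟩
    rw [Subgroup.mem_centralizer_singleton_iff]
    have h1 : f (l * s * l⁻¹ * s⁻¹) = 1 := by
      refine hLSb _ (Subgroup.mem_map_of_mem f ?_) ?_
      · have : s * l⁻¹ * s⁻¹ ∈ L := (Subgroup.mem_normalizer_iff.mp (hEL hsE) l⁻¹).mp (L.inv_mem hl)
        simpa [mul_assoc] using L.mul_mem hl this
      · rw [map_mul, map_mul, map_mul, map_inv, map_inv]
        exact Sb.mul_mem (hSbn.conj_mem _ (Subgroup.mem_map_of_mem f hs) _)
          (Sb.inv_mem (Subgroup.mem_map_of_mem f hs))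
    rw [map_mul, map_mul, map_mul, map_inv, map_inv, mul_inv_eq_one, mul_inv_eq_iff_eq_mul] at h1
    exact h1
  -- `L` lies in the normal `p'`-part of the centralizer of the Sylow subgroup
  rw [← QuotientGroup.ker_mk' N, ← Subgroup.map_eq_bot_iff]
  set C := Subgroup.centralizer (Sb : Set (G ⧸ N))
  haveI := hSbn
  haveI : C.Normal := Subgroup.normal_centralizer
  have hSbidx : Sb.index.Coprime p := by
    rw [Nat.coprime_comm, hp.out.coprime_iff_not_dvd]
    exact fun hd => S.not_dvd_index (hd.trans (Subgroup.index_map_dvd _ (QuotientGroup.mk'_surjective N)))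
  have hAc : (Sb.subgroupOf C).index.Coprime p :=
    hSbidx.coprime_dvd_left (Subgroup.relIndex_dvd_index_of_normal Sb C)
  have hcop : (Nat.card (Sb.subgroupOf C)).Coprime (Sb.subgroupOf C).index := by
    obtain ⟨j, hj⟩ := IsPGroup.iff_card.mp (hSbp.comap_of_injective C.subtype C.subtype_injective)
    rw [Subgroup.subgroupOf, hj]; exact hAc.symm.pow_left j
  obtain ⟨K, hK⟩ := Subgroup.exists_right_complement'_of_coprime hcop
  have hKidx : Nat.card K = (Sb.subgroupOf C).index := (hK.symm.index_eq_card).symm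
  have hKn : K.Normal := by
    refine ⟨fun k hk c => ?_⟩
    obtain ⟨⟨⟨a, ha⟩, ⟨k₀, hk₀⟩⟩, rfl⟩ := hK.surjective c
    have hak : ∀ y : C, a * y = y * a := fun y => Subtype.ext
      (Subgroup.mem_centralizer_iff.mp y.2 a (Subgroup.mem_subgroupOf.mp ha))
    show a * k₀ * k * (a * k₀)⁻¹ ∈ K
    have : a * k₀ * k * (a * k₀)⁻¹ = k₀ * k * k₀⁻¹ := by
      calc a * k₀ * k * (a * k₀)⁻¹ = a * (k₀ * k * k₀⁻¹) * a⁻¹ := by group
        _ = _ := by rw [hak, mul_inv_cancel_right]
    rw [this]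
    exact K.mul_mem (K.mul_mem hk₀ hk) (K.inv_mem hk₀)
  set M : Subgroup (G ⧸ N) := L.map f
  have hMK : M.subgroupOf C ≤ K := by
    haveI := hKn
    refine Cfsg.Agent.Core.le_of_coprime_index ?_
    rw [Cfsg.Agent.Core.card_subgroupOf hfix]
    have : IsPGroup p (Sb.subgroupOf C) := hSbp.comap_of_injective C.subtype C.subtype_injective
    obtain ⟨j, hj⟩ := IsPGroup.iff_card.mp this
    rw [hK.index_eq_card, hj]
    exact hLcop.pow_right j
  -- the complement is characteristic in `C`, so normal of order prime to `p`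
  have hKmap : (K.map C.subtype) = (pPrimeCore p ↥C).map C.subtype := by
    congr 1
    refine le_antisymm (Cfsg.Agent.Core.le_pPrimeCore hKn (by rw [hKidx]; exact hAc)) ?_
    haveI := hKn
    refine Cfsg.Agent.Core.le_of_coprime_index ?_
    obtain ⟨j, hj⟩ := IsPGroup.iff_card.mp (hSbp.comap_of_injective C.subtype C.subtype_injective)
    rw [hK.index_eq_card, Subgroup.subgroupOf, hj]
    exact (Cfsg.Agent.Core.card_pPrimeCore_coprime p C).pow_right j
  have hbot : pPrimeCore p (G ⧸ N) = ⊥ := by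
    haveI hn1 : (pPrimeCore p (G ⧸ N)).Normal := inferInstance
    set P₀ := pPrimeCore p (G ⧸ N)
    haveI hn2 : (P₀.comap f).Normal := hn1.comap f
    have hc : (Nat.card (P₀.comap f)).Coprime p := by
      rw [Cfsg.Agent.Core.card_comap_mk]
      exact Nat.Coprime.mul_left (Cfsg.Agent.Core.card_pPrimeCore_coprime _ _) hNp
    have hle := Cfsg.Agent.Core.le_pPrimeCore hn2 hc
    by_contra hne
    obtain ⟨x, hx, hx1⟩ := (Subgroup.bot_or_exists_ne_one P₀).resolve_left hne
    obtain ⟨g, rfl⟩ := QuotientGroup.mk'_surjective N x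
    exact hx1 ((QuotientGroup.eq_one_iff g).mpr (hU1max (hle hx)))
  rw [eq_bot_iff, ← hbot]
  intro x hx
  have hxC : (⟨x, hfix hx⟩ : C) ∈ K := hMK (Subgroup.mem_subgroupOf.mpr hx)
  have hchar : ((pPrimeCore p C).map C.subtype) ≤ pPrimeCore p (G ⧸ N) := by
    rw [Cfsg.Agent.Core.map_pPrimeCore_subtype]; exact inf_le_left
  exact hchar (hKmap ▸ ⟨⟨x, hfix hx⟩, hxC, rfl⟩)

end Cfsg.Agent.OddLocal
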