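import Cfsg.Prelude.Def_OddOrderLocal
import Cfsg.Agent.OddLocal.NilBasics

set_option autoImplicit false

namespace Cfsg.Agent.OddLocal

variable {G : Type*} [Group G]

theorem puigStep_antitone : Antitone (Cfsg.puigStep (G := G)) := by
  intro X Y h
  exact sSup_le_sSup fun A hA => ⟨hA.1, h.trans hA.2⟩

theorem puigStep_bot : Cfsg.puigStep (⊥ : Subgroup G) = ⊤ := by
  rw [eq_top_iff]
  intro g _
  have : Subgroup.zpowers g ≤ Cfsg.puigStep (⊥ : Subgroup G) :=
    le_sSup ⟨inferInstance, bot_le⟩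
  exact this (Subgroup.mem_zpowers g)

theorem le_puigStep_of_normal {A : Subgroup G} [A.Normal] (hA : IsMulCommutative A) (X : Subgroup G) :
    A ≤ Cfsg.puigStep X := by
  refine le_sSup ⟨hA, ?_⟩
  rw [Subgroup.normalizer_eq_top]
  exact le_top

theorem puigSeq_succ (n : ℕ) : Cfsg.puigSeq G (n + 1) = Cfsg.puigStep (Cfsg.puigSeq G n) := rfl

theorem puigSeq_even_le_odd_self (k : ℕ) :
    Cfsg.puigSeq G (2 * k) ≤ Cfsg.puigSeq G (2 * k + 1) ∧
      Cfsg.puigSeq G (2 * k + 2) ≤ Cfsg.puigSeq G (2 * k + 1) := by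
  induction k with
  | zero =>
    exact ⟨bot_le, by
      show _ ≤ Cfsg.puigStep (⊥ : Subgroup G)
      rw [puigStep_bot]; exact le_top⟩
  | succ k ih =>
    have h1 : Cfsg.puigSeq G (2 * k + 2) ≤ Cfsg.puigSeq G (2 * k + 3) := by
      rw [puigSeq_succ (2 * k + 2), puigSeq_succ (2 * k + 1)]
      exact puigStep_antitone ih.2
    refine ⟨h1, ?_⟩
    show Cfsg.puigSeq G (2 * k + 4) ≤ Cfsg.puigSeq G (2 * k + 3)
    rw [puigSeq_succ (2 * k + 3), puigSeq_succ (2 * k + 2)]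
    exact puigStep_antitone h1

theorem puigSeq_step_mono (k : ℕ) :
    Cfsg.puigSeq G (2 * k) ≤ Cfsg.puigSeq G (2 * k + 2) ∧
      Cfsg.puigSeq G (2 * k + 3) ≤ Cfsg.puigSeq G (2 * k + 1) := by
  induction k with
  | zero =>
    refine ⟨bot_le, ?_⟩
    rw [puigSeq_succ (2 * 0 + 2), puigSeq_succ (2 * 0)]
    exact puigStep_antitone bot_le
  | succ k ih =>
    have h1 : Cfsg.puigSeq G (2 * k + 2) ≤ Cfsg.puigSeq G (2 * k + 4) := by
      rw [puigSeq_succ (2 * k + 3), puigSeq_succ (2 * k + 1)]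
      exact puigStep_antitone ih.2
    refine ⟨h1, ?_⟩
    show Cfsg.puigSeq G (2 * k + 5) ≤ Cfsg.puigSeq G (2 * k + 3)
    rw [puigSeq_succ (2 * k + 4), puigSeq_succ (2 * k + 2)]
    exact puigStep_antitone h1

theorem puigSeq_even_monotone : Monotone fun n => Cfsg.puigSeq G (2 * n) :=
  monotone_nat_of_le_succ fun n => (puigSeq_step_mono n).1

theorem puigSeq_odd_antitone : Antitone fun n => Cfsg.puigSeq G (2 * n + 1) :=
  antitone_nat_of_succ_le fun n => (puigSeq_step_mono n).2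

theorem puigSeq_even_le_odd (n m : ℕ) : Cfsg.puigSeq G (2 * n) ≤ Cfsg.puigSeq G (2 * m + 1) := by
  rcases le_total n m with h | h
  · exact le_trans (puigSeq_even_monotone h) (puigSeq_even_le_odd_self m).1
  · exact le_trans (puigSeq_even_le_odd_self n).1 (puigSeq_odd_antitone h)

theorem puig_stabilizes [Finite G] :
    ∃ k : ℕ, ∀ n : ℕ, k ≤ n → Cfsg.puigSeq G (2 * n) = Cfsg.puigLower G ∧
      Cfsg.puigSeq G (2 * n + 1) = Cfsg.puigSubgroup G := by
  obtain ⟨k, hk⟩ := WellFoundedGT.monotone_chain_condition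
    (⟨fun n => Cfsg.puigSeq G (2 * n), puigSeq_even_monotone⟩ : ℕ →o Subgroup G)
  have hk' : ∀ n, k ≤ n → Cfsg.puigSeq G (2 * n) = Cfsg.puigSeq G (2 * k) := fun n hn => (hk n hn).symm
  have hlow : Cfsg.puigLower G = Cfsg.puigSeq G (2 * k) := by
    refine le_antisymm (iSup_le fun n => ?_) (le_iSup (fun n => Cfsg.puigSeq G (2 * n)) k)
    rcases le_total n k with h | h
    · exact puigSeq_even_monotone h
    · exact (hk' n h).le
  have ho : ∀ n, k ≤ n → Cfsg.puigSeq G (2 * n + 1) = Cfsg.puigSeq G (2 * k + 1) := fun n hn => by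
    rw [puigSeq_succ, puigSeq_succ, hk' n hn]
  have hup : Cfsg.puigSubgroup G = Cfsg.puigSeq G (2 * k + 1) := by
    refine le_antisymm (iInf_le (fun n => Cfsg.puigSeq G (2 * n + 1)) k) (le_iInf fun n => ?_)
    rcases le_total n k with h | h
    · exact puigSeq_odd_antitone h
    · exact (ho n h).ge
  exact ⟨k, fun n hn => ⟨by rw [hlow, hk' n hn], by rw [hup, ho n hn]⟩⟩

theorem puigLower_le_puigSubgroup : Cfsg.puigLower G ≤ Cfsg.puigSubgroup G :=
  iSup_le fun n => le_iInf fun m => puigSeq_even_le_odd n m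

theorem puigStep_puigLower [Finite G] : Cfsg.puigStep (Cfsg.puigLower G) = Cfsg.puigSubgroup G := by
  obtain ⟨k, hk⟩ := puig_stabilizes (G := G)
  rw [← (hk k le_rfl).1, ← (hk k le_rfl).2, puigSeq_succ]

theorem puigStep_puigSubgroup [Finite G] : Cfsg.puigStep (Cfsg.puigSubgroup G) = Cfsg.puigLower G := by
  obtain ⟨k, hk⟩ := puig_stabilizes (G := G)
  rw [← (hk k le_rfl).2, ← (hk (k + 1) (by omega)).1]
  rfl

theorem le_puigSeq_of_normal {A : Subgroup G} [A.Normal] (hA : IsMulCommutative A) {i : ℕ} (hi : 0 < i) :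
    A ≤ Cfsg.puigSeq G i := by
  obtain ⟨j, rfl⟩ : ∃ j, i = j + 1 := ⟨i - 1, by omega⟩
  exact le_puigStep_of_normal hA _

theorem le_puigSubgroup_of_normal {A : Subgroup G} [A.Normal] (hA : IsMulCommutative A) :
    A ≤ Cfsg.puigSubgroup G :=
  le_iInf fun _ => le_puigSeq_of_normal hA (by omega)

theorem le_puigLower_of_normal {A : Subgroup G} [A.Normal] (hA : IsMulCommutative A) :
    A ≤ Cfsg.puigLower G :=
  le_trans (le_puigSeq_of_normal (i := 2 * 1) hA (by omega))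
    (le_iSup (fun n => Cfsg.puigSeq G (2 * n)) 1)

end Cfsg.Agent.OddLocal
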