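import Cfsg.Agent.OddLocal.PuigTheorem
import Cfsg.Agent.Core.Cores

/-! The `Z(L(S))` theorem for arbitrary `p'`-core. -/

set_option autoImplicit false
set_option linter.style.haveILetI false

namespace Cfsg.Agent.OddLocal.PuigThm

open Cfsg

variable {G : Type*} [Group G]

/-- The centre of `X`, viewed in the ambient group. -/
theorem center_map_subtype (X : Subgroup G) :
    (Subgroup.center X).map X.subtype = X ⊓ Subgroup.centralizer (X : Set G) := by
  ext x
  simp only [Subgroup.mem_map, Subgroup.mem_inf, Subgroup.mem_centralizer_iff]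
  constructor
  · rintro ⟨z, hz, rfl⟩
    exact ⟨z.2, fun y hy => congrArg Subtype.val (Subgroup.mem_center_iff.mp hz ⟨y, hy⟩)⟩
  · rintro ⟨hx, hc⟩
    exact ⟨⟨x, hx⟩, Subgroup.mem_center_iff.mpr fun y => Subtype.ext (hc y y.2), rfl⟩

theorem center_map_map (X : Subgroup G) (L : Subgroup X) :
    ((Subgroup.center L).map L.subtype).map X.subtype =
      L.map X.subtype ⊓ Subgroup.centralizer (L.map X.subtype : Set G) := by
  rw [center_map_subtype]
  ext x
  simp only [Subgroup.mem_map, Subgroup.mem_inf, Subgroup.mem_centralizer_iff, SetLike.mem_coe]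
  constructor
  · rintro ⟨z, ⟨hz, hc⟩, rfl⟩
    exact ⟨⟨z, hz, rfl⟩, fun _ ⟨y, hy, hyy⟩ => hyy ▸ congrArg Subtype.val (hc y hy)⟩
  · rintro ⟨⟨z, hz, rfl⟩, hc⟩
    exact ⟨z, ⟨hz, fun y hy => Subtype.ext (hc y ⟨y, hy, rfl⟩)⟩, rfl⟩

theorem puigSeq_map {H : Type*} [Group H] (f : H →* G) (hf : Function.Injective f) (n : ℕ) :
    (Cfsg.puigSeq H n).map f = series f.range n := by
  induction n with
  | zero => rw [series_zero]; exact Subgroup.map_bot _
  | succ n ih => rw [puigSeq_succ, map_puigStep f hf, ih, series_succ]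

theorem puigSubgroup_map {H : Type*} [Group H] [Finite H] [Finite G] (f : H →* G)
    (hf : Function.Injective f) : (Cfsg.puigSubgroup H).map f = upper f.range := by
  obtain ⟨k, hk⟩ := puig_stabilizes (G := H)
  obtain ⟨l, hl⟩ := exists_stable f.range
  rw [← (hk (max k l) (le_max_left _ _)).2, ← (hl (max k l) (le_max_right _ _)).2, puigSeq_map f hf]

variable [Finite G] [Group.IsSolvable G] {p : ℕ} [hp : Fact p.Prime]

/-- Puig's factorization `G = O_{p'}(G) N(Z(L(S)))`. -/
theorem pPrimeCore_sup_normalizer (hodd : Odd (Nat.card G)) (S : Sylow p G) :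
    pPrimeCore p G ⊔ Subgroup.normalizer
      ((upper (S : Subgroup G) ⊓ Subgroup.centralizer (upper (S : Subgroup G) : Set G) : Subgroup G) : Set G) = ⊤ := by
  set O := pPrimeCore p G with hO
  set Z := upper (S : Subgroup G) ⊓ Subgroup.centralizer (upper (S : Subgroup G) : Set G) with hZ
  set π := QuotientGroup.mk' O with hπ
  have hπs := QuotientGroup.mk'_surjective O
  set S' := S.mapSurjective hπs with hS'
  have hSO : (S : Subgroup G) ⊓ O = ⊥ := by
    refine Subgroup.inf_eq_bot_of_coprime ?_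
    obtain ⟨k, hk⟩ := S.isPGroup'.exists_card_eq
    rw [hk]
    exact (Core.card_pPrimeCore_coprime p G).symm.pow_left k
  set f : (S : Subgroup G) →* G ⧸ O := π.comp (S : Subgroup G).subtype with hf
  have hfi : Function.Injective f := by
    rw [← MonoidHom.ker_eq_bot_iff, eq_bot_iff]
    intro x hx
    have h1 : (x : G) ∈ (S : Subgroup G) ⊓ O :=
      ⟨x.2, (QuotientGroup.eq_one_iff (x : G)).mp hx⟩
    rw [hSO, Subgroup.mem_bot] at h1
    exact Subgroup.mem_bot.mpr (Subtype.ext h1)
  have hfr : f.range = (S' : Subgroup (G ⧸ O)) := by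
    rw [hf, MonoidHom.range_comp, Subgroup.range_subtype]
    rfl
  have hL : (upper (S : Subgroup G)).map π = upper (S' : Subgroup (G ⧸ O)) := by
    rw [← hfr, ← puigSubgroup_map f hfi, upper, Subgroup.map_map]
  have hLS : upper (S : Subgroup G) ≤ S := Subgroup.map_subtype_le _
  have hinj : ∀ a ∈ (S : Subgroup G), ∀ b ∈ (S : Subgroup G), π a = π b → a = b := fun a ha b hb h =>
    congrArg Subtype.val (hfi (a₁ := ⟨a, ha⟩) (a₂ := ⟨b, hb⟩) h)
  have hZmap : Z.map π = upper (S' : Subgroup (G ⧸ O)) ⊓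
      Subgroup.centralizer (upper (S' : Subgroup (G ⧸ O)) : Set (G ⧸ O)) := by
    rw [← hL]
    ext x
    constructor
    · rintro ⟨z, ⟨hz, hc⟩, rfl⟩
      refine ⟨⟨z, hz, rfl⟩, Subgroup.mem_centralizer_iff.mpr ?_⟩
      rintro _ ⟨y, hy, rfl⟩
      rw [← map_mul, ← map_mul, Subgroup.mem_centralizer_iff.mp hc y hy]
    · rintro ⟨⟨z, hz, rfl⟩, hc⟩
      refine ⟨z, ⟨hz, Subgroup.mem_centralizer_iff.mpr fun y hy => ?_⟩, rfl⟩
      refine hinj _ (mul_mem (hLS hy) (hLS hz)) _ (mul_mem (hLS hz) (hLS hy)) ?_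
      rw [map_mul, map_mul]
      exact Subgroup.mem_centralizer_iff.mp hc _ ⟨y, hy, rfl⟩
  haveI hnorm : (Z.map π).Normal := by
    rw [hZmap]
    refine center_upper_normal ?_ (Core.pPrimeCore_quotient_pPrimeCore p G) S'
    exact hodd.of_dvd_nat (Subgroup.card_quotient_dvd_card O)
  set N := Z ⊔ O with hN
  haveI : N.Normal := by
    have h : N = (Z.map π).comap π := by rw [Subgroup.comap_map_eq, QuotientGroup.ker_mk']
    rw [h]
    exact hnorm.comap π
  have hZS : Z ≤ (S : Subgroup G) := inf_le_left.trans hLS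
  have hZN : Z ≤ N := le_sup_left
  have hidx : (Z.subgroupOf N).index = Nat.card O := by
    have h1 : O ⊓ Z = ⊥ := eq_bot_iff.mpr (by rw [← hSO, inf_comm]; exact inf_le_inf hZS le_rfl)
    have h2 : O.relIndex N = Nat.card Z := by
      rw [hN, Subgroup.relIndex_sup_right, ← Subgroup.inf_relIndex_right, h1, Subgroup.relIndex_bot_left]
    have h3 : Nat.card O * Nat.card Z = Nat.card N := by
      rw [← h2, ← Subgroup.relIndex_bot_left O, ← Subgroup.relIndex_bot_left N]
      exact Subgroup.relIndex_mul_relIndex _ _ _ bot_le le_sup_right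
    have h4 : Nat.card Z * (Z.subgroupOf N).index = Nat.card N := by
      rw [← Nat.card_congr (Subgroup.subgroupOfEquivOfLe hZN).toEquiv]
      exact Subgroup.card_mul_index _
    exact Nat.eq_of_mul_eq_mul_left Nat.card_pos (h4.trans (h3.symm.trans (mul_comm _ _)))
  have hpg : IsPGroup p (Z.subgroupOf N) :=
    (S.isPGroup'.to_le hZS).of_equiv (Subgroup.subgroupOfEquivOfLe hZN).symm
  have hfr' := Sylow.normalizer_sup_eq_top
    (hpg.toSylow (by rw [hidx]; exact Core.not_dvd_card_pPrimeCore p G))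
  rw [IsPGroup.toSylow_coe, Subgroup.subgroupOf_map_subtype, inf_eq_left.mpr hZN] at hfr'
  refine top_le_iff.mp (hfr'.ge.trans (sup_le le_sup_right (sup_le ?_ le_sup_left)))
  exact Subgroup.le_normalizer.trans le_sup_right

end Cfsg.Agent.OddLocal.PuigThm
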