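import Cfsg.Agent.OddLocal.Stability65
import Cfsg.Agent.OddLocal.Puig
import Cfsg.Agent.OddLocal.NilBasics
import Cfsg.Agent.OddLocal.ThreeStep
import Cfsg.Agent.Transfer.Fusion

/-! The `Z(L(S))` theorem of Puig for solvable groups of odd order. -/

set_option autoImplicit false
set_option linter.style.haveILetI false

namespace Cfsg.Agent.OddLocal.PuigThm

open Cfsg

variable {G : Type*} [Group G]

/-- `L_X(Y)` computed inside an ambient group. -/
def step (X Y : Subgroup G) : Subgroup G :=
  sSup {A : Subgroup G | A ≤ X ∧ IsMulCommutative A ∧ Y ≤ Subgroup.normalizer (A : Set G)}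

theorem le_step {X Y A : Subgroup G} (hAX : A ≤ X) (hA : IsMulCommutative A)
    (hY : Y ≤ Subgroup.normalizer (A : Set G)) : A ≤ step X Y :=
  le_sSup ⟨hAX, hA, hY⟩

theorem step_le {X Y : Subgroup G} : step X Y ≤ X := sSup_le fun _ hA => hA.1

theorem step_antitone (X : Subgroup G) : Antitone (step X) := fun _ _ h =>
  sSup_le_sSup fun _ hA => ⟨hA.1, hA.2.1, h.trans hA.2.2⟩

theorem map_puigStep {H : Type*} [Group H] (f : H →* G) (hf : Function.Injective f) (Y : Subgroup H) :
    (Cfsg.puigStep Y).map f = step f.range (Y.map f) := by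
  refine le_antisymm ?_ ?_
  · rw [Subgroup.map_le_iff_le_comap]
    refine sSup_le fun A hA => Subgroup.map_le_iff_le_comap.mp ?_
    haveI := hA.1
    exact le_step (MonoidHom.range_eq_map f ▸ Subgroup.map_mono le_top) inferInstance
      ((Subgroup.map_mono hA.2).trans (Subgroup.le_normalizer_map f))
  · refine sSup_le fun B ⟨hB, hBc, hY⟩ => ?_
    have hBeq : (B.comap f).map f = B := by rw [Subgroup.map_comap_eq, inf_of_le_right hB]
    rw [← hBeq]
    refine Subgroup.map_mono (le_sSup ⟨⟨⟨fun x y => Subtype.ext (hf ?_)⟩⟩, fun y hy => ?_⟩)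
    · rw [Subgroup.coe_mul, Subgroup.coe_mul, map_mul, map_mul]
      exact congrArg Subtype.val (hBc.1.1 ⟨f x, x.2⟩ ⟨f y, y.2⟩)
    · have h1 := Subgroup.mem_normalizer_iff.mp (hY ⟨y, hy, rfl⟩)
      refine Subgroup.mem_normalizer_iff.mpr fun z => ?_
      rw [Subgroup.mem_comap, Subgroup.mem_comap, map_mul, map_mul, map_inv]
      exact h1 (f z)

/-- The Puig series of `X` inside an ambient group. -/
def series (X : Subgroup G) (n : ℕ) : Subgroup G := (Cfsg.puigSeq X n).map X.subtype

theorem series_zero (X : Subgroup G) : series X 0 = ⊥ := Subgroup.map_bot _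

theorem series_succ (X : Subgroup G) (n : ℕ) : series X (n + 1) = step X (series X n) := by
  rw [series, puigSeq_succ, map_puigStep _ X.subtype_injective, Subgroup.range_subtype, series]

/-- `L(X)` inside an ambient group. -/
def upper (X : Subgroup G) : Subgroup G := (Cfsg.puigSubgroup X).map X.subtype

/-- `L_*(X)` inside an ambient group. -/
def lower (X : Subgroup G) : Subgroup G := (Cfsg.puigLower X).map X.subtype

theorem exists_stable [Finite G] (X : Subgroup G) :
    ∃ k, ∀ n, k ≤ n → series X (2 * n) = lower X ∧ series X (2 * n + 1) = upper X := by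
  obtain ⟨k, hk⟩ := puig_stabilizes (G := X)
  exact ⟨k, fun n hn => ⟨congrArg _ (hk n hn).1, congrArg _ (hk n hn).2⟩⟩

theorem step_lower [Finite G] (X : Subgroup G) : step X (lower X) = upper X := by
  rw [lower, upper, ← puigStep_puigLower, map_puigStep _ X.subtype_injective, Subgroup.range_subtype]

theorem step_upper [Finite G] (X : Subgroup G) : step X (upper X) = lower X := by
  rw [lower, upper, ← puigStep_puigSubgroup, map_puigStep _ X.subtype_injective, Subgroup.range_subtype]

theorem series_two_mul_succ (X : Subgroup G) (n : ℕ) :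
    series X (2 * (n + 1)) = step X (series X (2 * n + 1)) := series_succ X _

theorem series_le (X : Subgroup G) (n : ℕ) : series X n ≤ X := Subgroup.map_subtype_le _

theorem series_even_le_lower (X : Subgroup G) (n : ℕ) : series X (2 * n) ≤ lower X :=
  Subgroup.map_mono (le_iSup (fun n => Cfsg.puigSeq X (2 * n)) n)

theorem upper_le_series_odd (X : Subgroup G) (n : ℕ) : upper X ≤ series X (2 * n + 1) :=
  Subgroup.map_mono (iInf_le (fun n => Cfsg.puigSeq X (2 * n + 1)) n)

theorem lower_le_upper [Finite G] (X : Subgroup G) : lower X ≤ upper X :=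
  Subgroup.map_mono puigLower_le_puigSubgroup

/-- `L(X) = L(S)` for `L(S) ≤ X ≤ S`. -/
theorem upper_eq_of_le [Finite G] {X S : Subgroup G} (hXS : X ≤ S) (hle : upper S ≤ X) :
    upper X = upper S := by
  have ha : lower S ≤ X := (lower_le_upper S).trans hle
  have hb : step X (lower S) = upper S := by
    rw [← step_lower]
    refine le_antisymm (sSup_le fun A hA => le_step (hA.1.trans hXS) hA.2.1 hA.2.2) (sSup_le fun A hA => ?_)
    exact le_step ((le_step hA.1 hA.2.1 hA.2.2).trans ((step_lower S).le.trans hle)) hA.2.1 hA.2.2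
  have ha' : step X (upper S) = lower S := by
    rw [← step_upper]
    refine le_antisymm (sSup_le fun A hA => le_step (hA.1.trans hXS) hA.2.1 hA.2.2) (sSup_le fun A hA => ?_)
    exact le_step ((le_step hA.1 hA.2.1 hA.2.2).trans ((step_upper S).le.trans ha)) hA.2.1 hA.2.2
  have h1 : ∀ n, series X (2 * n) ≤ lower S ∧ upper S ≤ series X (2 * n + 1) := by
    intro n
    induction n with
    | zero =>
      refine ⟨by rw [series_zero]; exact bot_le, ?_⟩
      rw [series_succ, series_zero, ← hb]
      exact step_antitone X bot_le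
    | succ n ih =>
      have h2 : series X (2 * (n + 1)) ≤ lower S := by
        rw [show 2 * (n + 1) = 2 * n + 1 + 1 by ring, series_succ, ← ha']
        exact step_antitone X ih.2
      refine ⟨h2, ?_⟩
      rw [series_succ, ← hb]
      exact step_antitone X h2
  have h3 : ∀ n, series S (2 * n) ≤ series X (2 * n) ∧ series X (2 * n + 1) ≤ series S (2 * n + 1) := by
    intro n
    induction n with
    | zero =>
      refine ⟨by rw [series_zero]; exact bot_le, ?_⟩
      rw [series_succ, series_succ, series_zero, series_zero]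
      exact sSup_le fun A hA => le_step (hA.1.trans hXS) hA.2.1 hA.2.2
    | succ n ih =>
      have h2 : series S (2 * (n + 1)) ≤ series X (2 * (n + 1)) := by
        rw [series_two_mul_succ, series_two_mul_succ]
        refine sSup_le fun A hA => le_step ?_ hA.2.1 (ih.2.trans hA.2.2)
        exact (le_step hA.1 hA.2.1 (((h1 n).2.trans ih.2).trans hA.2.2)).trans ((step_upper S).le.trans ha)
      refine ⟨h2, ?_⟩
      rw [series_succ, series_succ]
      exact sSup_le fun A hA => le_step (hA.1.trans hXS) hA.2.1 (h2.trans hA.2.2)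
  obtain ⟨k, hk⟩ := exists_stable X
  obtain ⟨l, hl⟩ := exists_stable S
  have hX := (hk (max k l) (le_max_left _ _)).2
  have hS := (hl (max k l) (le_max_right _ _)).2
  exact le_antisymm (by rw [← hX, ← hS]; exact (h3 _).2) (by rw [← hX]; exact (h1 _).2)

theorem puigSeq_map_iso {H K : Type*} [Group H] [Group K] (e : H ≃* K) (n : ℕ) :
    (Cfsg.puigSeq H n).map e.toMonoidHom = Cfsg.puigSeq K n := by
  induction n with
  | zero => exact Subgroup.map_bot _
  | succ n ih =>
    rw [puigSeq_succ, puigSeq_succ, map_puigStep e.toMonoidHom e.injective, ih,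
      show e.toMonoidHom.range = ⊤ from MonoidHom.range_eq_top.mpr e.surjective]
    simp [step, Cfsg.puigStep]

theorem puigSubgroup_map_iso {H K : Type*} [Group H] [Group K] [Finite H] [Finite K] (e : H ≃* K) :
    (Cfsg.puigSubgroup H).map e.toMonoidHom = Cfsg.puigSubgroup K := by
  obtain ⟨k, hk⟩ := puig_stabilizes (G := H)
  obtain ⟨l, hl⟩ := puig_stabilizes (G := K)
  rw [← (hk (max k l) (le_max_left _ _)).2, ← (hl (max k l) (le_max_right _ _)).2, puigSeq_map_iso]

theorem puigSubgroup_characteristic {H : Type*} [Group H] [Finite H] : (Cfsg.puigSubgroup H).Characteristic :=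
  Subgroup.characteristic_iff_map_eq.mpr fun e => puigSubgroup_map_iso e

theorem puigSeq_characteristic {H : Type*} [Group H] (n : ℕ) : (Cfsg.puigSeq H n).Characteristic :=
  Subgroup.characteristic_iff_map_eq.mpr fun e => puigSeq_map_iso e n

theorem normalizer_le_upper [Finite G] (X : Subgroup G) :
    Subgroup.normalizer (X : Set G) ≤ Subgroup.normalizer (upper X : Set G) :=
  haveI := puigSubgroup_characteristic (H := X)
  normalizer_le_normalizer_map_char X _

/-- In a `p`-group the terms of the series contain their centralizers. -/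
theorem centralizer_le_puig {H : Type*} [Group H] [Finite H] [Group.IsNilpotent H] :
    (∀ n, Subgroup.centralizer ((Cfsg.puigSeq H (n + 1) : Subgroup H) : Set H) ≤ Cfsg.puigSeq H (n + 1)) ∧
      Subgroup.centralizer ((Cfsg.puigLower H : Subgroup H) : Set H) ≤ Cfsg.puigLower H ∧
      Subgroup.centralizer ((Cfsg.puigSubgroup H : Subgroup H) : Set H) ≤ Cfsg.puigSubgroup H := by
  obtain ⟨A, hAn, hAc, hA⟩ := exists_normal_isMulCommutative_eq_centralizer (G := H)
  have key : ∀ X : Subgroup H, A ≤ X → Subgroup.centralizer (X : Set H) ≤ X := fun X hX =>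
    ((Subgroup.centralizer_le hX).trans hA.le).trans hX
  exact ⟨fun n => key _ (le_puigSeq_of_normal hAc (Nat.succ_pos n)), key _ (le_puigLower_of_normal hAc),
    key _ (le_puigSubgroup_of_normal hAc)⟩

variable [Finite G] [Group.IsSolvable G] {p : ℕ} [hp : Fact p.Prime]

theorem lower_le_and_upper_le (hodd : Odd (Nat.card G)) (hO : pPrimeCore p G = ⊥) (S : Sylow p G) :
    lower (S : Subgroup G) ≤ lower (pCore p G) ∧ upper (pCore p G) ≤ upper (S : Subgroup G) := by
  set T := pCore p G
  haveI hTnil : Group.IsNilpotent T := (Core.isPGroup_pCore p G).isNilpotent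
  have hTS : T ≤ (S : Subgroup G) := Core.pCore_le_sylow S
  have h : ∀ n, series (S : Subgroup G) (2 * n) ≤ series T (2 * n) ∧
      series T (2 * n + 1) ≤ series (S : Subgroup G) (2 * n + 1) := by
    intro n
    induction n with
    | zero =>
      refine ⟨by rw [series_zero]; exact bot_le, ?_⟩
      rw [series_succ, series_succ, series_zero, series_zero]
      exact sSup_le fun A hA => le_step (hA.1.trans hTS) hA.2.1 hA.2.2
    | succ n ih =>
      have h2 : series (S : Subgroup G) (2 * (n + 1)) ≤ series T (2 * (n + 1)) := by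
        rw [series_two_mul_succ, series_two_mul_succ]
        refine sSup_le fun A hA => ?_
        set P := series T (2 * n + 1) with hP
        haveI := puigSeq_characteristic (H := T) (2 * n + 1)
        haveI : P.Normal := by rw [hP, series]; exact Core.normal_map_subtype_of_characteristic _
        have hPc : pCore p G ⊓ Subgroup.centralizer (P : Set G) ≤ P := by
          rintro x ⟨hxT, hxc⟩
          refine ⟨⟨x, hxT⟩, centralizer_le_puig.1 (2 * n) (Subgroup.mem_centralizer_iff.mpr fun y hy =>
            Subtype.ext ?_), rfl⟩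
          exact Subgroup.mem_centralizer_iff.mp hxc y ⟨y, hy, rfl⟩
        have hPA : P ≤ Subgroup.normalizer (A : Set G) := ih.2.trans hA.2.2
        have hAT : A ≤ T := (Subgroup.map_le_iff_le_comap.mp (map_le_pCore_of_normalized hodd P
          ((Core.isPGroup_pCore p G).to_le (Subgroup.map_subtype_le _)) hA.2.1 hPA)).trans
          (comap_pCore_quotient_le P hO hPc)
        exact le_step hAT hA.2.1 hPA
      refine ⟨h2, ?_⟩
      rw [series_succ, series_succ]
      exact sSup_le fun A hA => le_step (hA.1.trans hTS) hA.2.1 (h2.trans hA.2.2)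
  obtain ⟨k, hk⟩ := exists_stable (S : Subgroup G)
  obtain ⟨l, hl⟩ := exists_stable T
  have h1 := h (max k l)
  rw [(hk _ (le_max_left _ _)).1, (hl _ (le_max_right _ _)).1, (hk _ (le_max_left _ _)).2,
    (hl _ (le_max_right _ _)).2] at h1
  exact h1

/-- Puig's theorem: `Z(L(S))` is normal. -/
theorem center_upper_normal (hodd : Odd (Nat.card G)) (hO : pPrimeCore p G = ⊥) (S : Sylow p G) :
    (upper (S : Subgroup G) ⊓ Subgroup.centralizer (upper (S : Subgroup G) : Set G)).Normal := by
  obtain ⟨hlow, hup⟩ := lower_le_and_upper_le hodd hO S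
  set T := pCore p G
  haveI hTnil : Group.IsNilpotent T := (Core.isPGroup_pCore p G).isNilpotent
  have hTS : T ≤ (S : Subgroup G) := Core.pCore_le_sylow S
  set L := upper (S : Subgroup G) with hL
  set Z := L ⊓ Subgroup.centralizer (L : Set G) with hZ
  haveI := puigSubgroup_characteristic (H := T)
  haveI hUTn : (upper T).Normal := Core.normal_map_subtype_of_characteristic _
  haveI hLTn : (lower T).Normal := by
    haveI : (Cfsg.puigLower T).Characteristic := by
      obtain ⟨k, hk⟩ := puig_stabilizes (G := T)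
      rw [← (hk k le_rfl).1]
      exact puigSeq_characteristic _
    exact Core.normal_map_subtype_of_characteristic _
  set W := lower T ⊓ Subgroup.centralizer (lower T : Set G) with hW
  haveI hWn : W.Normal := by
    haveI : (Subgroup.centralizer (lower T : Set G)).Normal := Subgroup.normal_centralizer
    infer_instance
  haveI hCn : (Subgroup.centralizer (upper T : Set G)).Normal := Subgroup.normal_centralizer
  have hselfU : T ⊓ Subgroup.centralizer (upper T : Set G) ≤ upper T := by
    rintro x ⟨hxT, hxc⟩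
    exact ⟨⟨x, hxT⟩, centralizer_le_puig.2.2 (Subgroup.mem_centralizer_iff.mpr fun y hy =>
      Subtype.ext (Subgroup.mem_centralizer_iff.mp hxc y ⟨y, hy, rfl⟩)), rfl⟩
  have hCT : Subgroup.centralizer (upper T : Set G) ≤ T := by
    refine le_trans ?_ (comap_pCore_quotient_le (upper T) hO hselfU)
    intro x hx
    rw [Subgroup.mem_comap, show QuotientGroup.mk' _ x = 1 from (QuotientGroup.eq_one_iff x).mpr hx]
    exact Subgroup.one_mem _
  have hZW : Z ≤ W := by
    rintro x ⟨hxL, hxc⟩
    have hx1 : x ∈ Subgroup.centralizer (upper T : Set G) := Subgroup.centralizer_le hup hxc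
    have hxT : x ∈ T := hCT hx1
    have hx2 : x ∈ Subgroup.centralizer (lower T : Set G) := Subgroup.centralizer_le (lower_le_upper T) hx1
    exact ⟨⟨⟨x, hxT⟩, centralizer_le_puig.2.1 (Subgroup.mem_centralizer_iff.mpr fun y hy =>
      Subtype.ext (Subgroup.mem_centralizer_iff.mp hx2 y ⟨y, hy, rfl⟩)), rfl⟩, hx2⟩
  have hWlow : W ≤ lower (S : Subgroup G) := by
    rintro x ⟨hx, hxc⟩
    have hxS : x ∈ (S : Subgroup G) := hTS (Subgroup.map_subtype_le _ hx)
    haveI := S.isPGroup'.isNilpotent
    exact ⟨⟨x, hxS⟩, centralizer_le_puig.2.1 (Subgroup.mem_centralizer_iff.mpr fun y hy =>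
      Subtype.ext (Subgroup.mem_centralizer_iff.mp hxc y (hlow ⟨y, hy, rfl⟩))), rfl⟩
  set f := QuotientGroup.mk' (Subgroup.centralizer (W : Set G)) with hf
  set D := (pCore p (G ⧸ Subgroup.centralizer (W : Set G))).comap f with hD
  haveI : D.Normal := Subgroup.Normal.comap inferInstance f
  have hLD : L ≤ D := by
    rw [hL, ← step_lower]
    exact sSup_le fun A hA => Subgroup.map_le_iff_le_comap.mp (map_le_pCore_of_normalized hodd W
      ((Core.isPGroup_pCore p G).to_le (inf_le_left.trans (Subgroup.map_subtype_le _))) hA.2.1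
      (hWlow.trans hA.2.2))
  set S₁ := (S : Subgroup G) ⊓ D with hS₁
  have hLS : L ≤ (S : Subgroup G) := Subgroup.map_subtype_le _
  have heq : upper S₁ = L := upper_eq_of_le inf_le_left (le_inf hLS hLD)
  have hN : Subgroup.normalizer (S₁ : Set G) ≤ Subgroup.normalizer (Z : Set G) := by
    intro g hg
    have hgL := normalizer_le_upper S₁ hg
    rw [heq] at hgL
    rw [Subgroup.mem_normalizer_iff]
    intro x
    have hc : ∀ g : G, g ∈ Subgroup.normalizer (L : Set G) → ∀ x ∈ Z, g * x * g⁻¹ ∈ Z := by
      rintro g hg x ⟨hxL, hxc⟩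
      refine ⟨(Subgroup.mem_normalizer_iff.mp hg x).mp hxL, Subgroup.mem_centralizer_iff.mpr fun y hy => ?_⟩
      have h1 := Subgroup.mem_centralizer_iff.mp hxc _ ((Subgroup.mem_normalizer_iff''.mp hg y).mp hy)
      calc y * (g * x * g⁻¹) = g * ((g⁻¹ * y * g) * x) * g⁻¹ := by group
        _ = g * (x * (g⁻¹ * y * g)) * g⁻¹ := by rw [h1]
        _ = g * x * g⁻¹ * y := by group
    refine ⟨hc g hgL x, fun h => ?_⟩
    have := hc g⁻¹ ((Subgroup.normalizer _).inv_mem hgL) _ h
    simpa [mul_assoc] using this
  refine Subgroup.normalizer_eq_top_iff.mp (eq_top_iff.mpr ?_)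
  have htop := Sylow.normalizer_sup_eq_top (Transfer.sylowOfNormal S D)
  rw [Transfer.coe_sylowOfNormal, Subgroup.subgroupOf_map_subtype, ← hS₁] at htop
  rw [← htop]
  refine sup_le hN fun d hd => ?_
  obtain ⟨s, hs, hsd⟩ := Core.pCore_le_sylow (S.mapSurjective (QuotientGroup.mk'_surjective _))
    (show f d ∈ pCore p (G ⧸ Subgroup.centralizer (W : Set G)) from hd)
  have hsS₁ : s ∈ S₁ := ⟨hs, by
    show f s ∈ pCore p _
    rw [hsd]; exact hd⟩
  have hc : d * s⁻¹ ∈ Subgroup.centralizer (W : Set G) := (QuotientGroup.eq_one_iff _).mp (by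
    show f (d * s⁻¹) = 1
    rw [map_mul, map_inv, hsd, mul_inv_cancel])
  have hcN : d * s⁻¹ ∈ Subgroup.normalizer (Z : Set G) :=
    Subgroup.centralizer_le_normalizer _ (Subgroup.centralizer_le hZW hc)
  simpa using (Subgroup.normalizer (Z : Set G)).mul_mem hcN (hN (Subgroup.le_normalizer hsS₁))

end Cfsg.Agent.OddLocal.PuigThm
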