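import Cfsg.Agent.OddLocal.Basic

/-! Elementary consequences of type P data. -/

set_option autoImplicit false

namespace Cfsg.Agent.OddLocal

open Cfsg

variable {G : Type*} [Group G] [Finite G] {M W₁ U W₂ : Subgroup G}

theorem derived_le (M : Subgroup G) : ⁅M, M⁆ ≤ M := by
  rw [Subgroup.commutator_le]
  intro a ha b hb
  rw [commutatorElement_def]
  exact M.mul_mem (M.mul_mem (M.mul_mem ha hb) (M.inv_mem ha)) (M.inv_mem hb)

theorem typeP_fitting_inf_le (hP : IsTypePWith M W₁ U W₂) :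
    fittingOf M ⊓ U ≤ U ⊓ Subgroup.centralizer (fittingHallOf M : Set G) := by
  refine le_inf inf_le_right ?_
  have hHF : fittingHallOf M ≤ fittingOf M := le_sup_left.trans hP.fitting_eq.le
  apply le_centralizer_of_isNilpotent (isNilpotent_fittingOf M) inf_le_left hHF
  have h1 : Nat.card U ∣ (fittingHallOf M).relIndex M := by
    rw [← IsComplIn.relIndex_left hP.U_compl]
    exact Dvd.intro _ (Subgroup.relIndex_mul_relIndex _ _ _ hP.U_compl.1 (derived_le M))
  exact (Nat.Coprime.coprime_dvd_left (Subgroup.card_dvd_of_le inf_le_right)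
    (Nat.Coprime.coprime_dvd_left h1 (coprime_fittingHallOf M).symm))

theorem typeP_fitting_eq (hP : IsTypePWith M W₁ U W₂) :
    fittingOf M = fittingHallOf M ⊔ (U ⊓ Subgroup.centralizer (fittingHallOf M : Set G)) := by
  have hUM : U ≤ M := hP.U_compl.2.1.trans (derived_le M)
  refine le_antisymm ?_ (sup_le (le_sup_left.trans hP.fitting_eq.le) ?_)
  · intro f hf
    obtain ⟨h, hh, u, hu, rfl⟩ := hP.U_compl.2.2.2 f (hP.fitting_le hf)
    refine Subgroup.mul_mem_sup hh (typeP_fitting_inf_le hP ⟨?_, hu⟩)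
    have : h⁻¹ * (h * u) ∈ fittingOf M :=
      (fittingOf M).mul_mem ((fittingOf M).inv_mem (le_sup_left.trans hP.fitting_eq.le hh)) hf
    simpa using this
  · refine le_trans ?_ hP.fitting_eq.le
    exact le_sup_of_le_right (inf_le_inf_right _ hUM)

theorem typeP_derived_centralizes (hP : IsTypePWith M W₁ U W₂) :
    ⁅U, U⁆ ≤ Subgroup.centralizer (fittingHallOf M : Set G) ∧
      (U ≠ ⊥ → ¬ U ≤ Subgroup.centralizer (fittingHallOf M : Set G)) := by
  have hUM' : U ≤ ⁅M, M⁆ := hP.U_compl.2.1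
  have hUM : U ≤ M := hUM'.trans (derived_le M)
  refine ⟨le_trans (le_inf ?_ (derived_le U)) ((typeP_fitting_inf_le hP).trans inf_le_right), ?_⟩
  · exact le_trans (Subgroup.commutator_mono hUM' hUM') (hP.derived_two_le.trans hP.fitting_eq.le)
  intro hU hUC
  apply hU
  rw [eq_bot_iff, ← hP.U_compl.2.2.1]
  refine le_inf ?_ le_rfl
  have hF : fittingOf M = ⁅M, M⁆ := by
    refine le_antisymm hP.fitting_le (fun m hm => ?_)
    obtain ⟨h, hh, u, hu, rfl⟩ := hP.U_compl.2.2.2 m hm
    exact hP.fitting_eq.le (Subgroup.mul_mem_sup hh ⟨hUM hu, hUC hu⟩)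
  have hD : (commutator M).map M.subtype = ⁅M, M⁆ := Subgroup.map_subtype_commutator M
  have hle : commutator M ≤ fittingHall M := by
    refine le_fittingHall inferInstance ?_ ?_
    · have hnil : Group.IsNilpotent ((commutator M).map M.subtype) := by
        rw [hD, ← hF]; exact isNilpotent_fittingOf M
      exact Cfsg.Agent.Core.isNilpotent_congr
        ((commutator M).equivMapOfInjective M.subtype M.subtype_injective).symm hnil
    · have h1 : Nat.card (commutator M) = Nat.card (⁅M, M⁆ : Subgroup G) := by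
        rw [← hD, Cfsg.Agent.Core.card_map_subtype]
      have h2 : (commutator M).index = Nat.card W₁ := by
        rw [← IsComplIn.relIndex_left hP.W₁_compl, ← hD, Subgroup.relIndex, Subgroup.subgroupOf,
          Subgroup.comap_map_eq_self_of_injective M.subtype_injective]
      have h3 := hP.W₁_hall
      rw [IsComplIn.relIndex_right hP.W₁_compl] at h3
      rw [h1, h2]; exact h3.symm
  calc U ≤ ⁅M, M⁆ := hUM'
    _ = (commutator M).map M.subtype := hD.symm
    _ ≤ fittingHallOf M := Subgroup.map_mono hle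

theorem typeP_W₂_eq {S U W₁ W₂ W₂' : Subgroup G} (hW : IsSelfNormalizingCyclic W₁ W₂)
    (hW₂S : W₂ ≤ S) (hP : IsTypePWith S W₁ U W₂') : W₂' = W₂ := by
  obtain ⟨hW1, hW2, hdisj, hcomm, hcyc, hnorm⟩ := hW
  obtain ⟨-, hW2', hdisj', hcomm', hcyc', -⟩ := hP.selfNormalizing
  obtain ⟨x, hx, hx1⟩ := (Subgroup.bot_or_exists_ne_one W₁).resolve_left hW1
  have hle : W₁ ⊔ W₂ ≤ W₁ ⊔ W₂' := by
    refine sup_le le_sup_left fun b hb => ?_
    obtain ⟨a, ha, c, hc, rfl⟩ := hP.W₁_compl.2.2.2 b (hW₂S hb)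
    have h1 := hcomm x hx (a * c) hb
    have hcx : c * x = x * c := by
      have h := hP.W₁_cyclic
      have := (IsCyclic.commGroup (α := W₁)).mul_comm ⟨c, hc⟩ ⟨x, hx⟩
      exact congrArg Subtype.val this
    have hax : a * x = x * a := by
      have h2 : a * x * c = x * a * c := by
        rw [mul_assoc a x c, ← hcx, ← mul_assoc, ← h1, mul_assoc]
      exact mul_right_cancel h2
    have ha' : a ∈ W₂' := by
      rw [← hP.W₂_centralizer x hx hx1]
      exact ⟨ha, (Subgroup.mem_centralizer_singleton_iff).mpr hax⟩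
    exact (W₁ ⊔ W₂').mul_mem (Subgroup.mem_sup_right ha') (Subgroup.mem_sup_left hc)
  obtain ⟨y, hy, hy1⟩ := (Subgroup.bot_or_exists_ne_one W₂).resolve_left hW2
  have hge : W₁ ⊔ W₂' ≤ W₁ ⊔ W₂ := by
    have hX : ({x * y} : Set G) ⊆ ((W₁ ⊔ W₂ : Subgroup G) : Set G) \ (↑W₁ ∪ ↑W₂) := by
      rw [Set.singleton_subset_iff]
      refine ⟨Subgroup.mul_mem_sup hx hy, ?_⟩
      rintro (h | h)
      · have : y ∈ W₁ ⊓ W₂ := ⟨by simpa using W₁.mul_mem (W₁.inv_mem hx) h, hy⟩
        exact hy1 (by rwa [hdisj, Subgroup.mem_bot] at this)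
      · have : x ∈ W₁ ⊓ W₂ := ⟨hx, by simpa using W₂.mul_mem h (W₂.inv_mem hy)⟩
        exact hx1 (by rwa [hdisj, Subgroup.mem_bot] at this)
    rw [← hnorm _ hX (Set.singleton_nonempty _)]
    intro w hw
    rw [Subgroup.mem_set_normalizer_iff'']
    have hxy : x * y ∈ W₁ ⊔ W₂' := hle (Subgroup.mul_mem_sup hx hy)
    have hc : w * (x * y) = (x * y) * w :=
      congrArg Subtype.val ((IsCyclic.commGroup (α := ↥(W₁ ⊔ W₂'))).mul_comm ⟨w, hw⟩ ⟨x * y, hxy⟩)
    intro z
    simp only [Set.mem_singleton_iff]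
    constructor
    · rintro rfl; rw [mul_assoc, ← hc, inv_mul_cancel_left]
    · intro hz
      have := congrArg (fun t => w * t * w⁻¹) hz
      simpa [mul_assoc, hc] using this
  have hWW : W₁ ⊔ W₂ = W₁ ⊔ W₂' := le_antisymm hle hge
  have hc1 : IsComplIn W₁ W₂ (W₁ ⊔ W₂) := ⟨le_sup_left, le_sup_right, hdisj, fun m hm => by
    have hn : W₁ ≤ Subgroup.normalizer (W₂ : Set G) := fun a ha => by
      rw [Subgroup.mem_normalizer_iff]; intro b
      constructor
      · intro hb; rwa [hcomm a ha b hb, mul_inv_cancel_right]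
      · intro hb
        have := hcomm a ha _ hb
        have h2 : b = a * b * a⁻¹ := by
          have := mul_left_cancel (a := a) (by rw [this]; group : a * (a * b * a⁻¹) = a * b)
          exact this.symm
        rwa [h2]
    rw [← SetLike.mem_coe, Subgroup.coe_mul_of_left_le_normalizer_right W₁ W₂ hn] at hm
    obtain ⟨a, ha, b, hb, rfl⟩ := hm
    exact ⟨a, ha, b, hb, rfl⟩⟩
  have hc2 : IsComplIn W₁ W₂' (W₁ ⊔ W₂') := ⟨le_sup_left, le_sup_right, hdisj', fun m hm => by
    have hn : W₁ ≤ Subgroup.normalizer (W₂' : Set G) := fun a ha => by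
      rw [Subgroup.mem_normalizer_iff]; intro b
      constructor
      · intro hb; rwa [hcomm' a ha b hb, mul_inv_cancel_right]
      · intro hb
        have := hcomm' a ha _ hb
        have h2 : b = a * b * a⁻¹ := by
          have := mul_left_cancel (a := a) (by rw [this]; group : a * (a * b * a⁻¹) = a * b)
          exact this.symm
        rwa [h2]
    rw [← SetLike.mem_coe, Subgroup.coe_mul_of_left_le_normalizer_right W₁ W₂' hn] at hm
    obtain ⟨a, ha, b, hb, rfl⟩ := hm
    exact ⟨a, ha, b, hb, rfl⟩⟩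
  refine eq_of_card_eq_of_isCyclic hcyc (by rw [hWW]; exact le_sup_right) le_sup_right ?_
  have e1 := IsComplIn.card_mul hc1
  have e2 := IsComplIn.card_mul hc2
  rw [← hWW] at e2
  exact Nat.eq_of_mul_eq_mul_left (n := Nat.card W₁) Nat.card_pos (e2.trans e1.symm)

end Cfsg.Agent.OddLocal
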